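-- Team project OHYP (S5992), package [CNTIN] (helper61): the number of hyperbolic m-spaces
-- inside the fixed space is prime to r (orbit-stabilizer for the pointwise stabilizer of the
-- moved space, transitive by [CNTWITT], of order prime to r by [CNTCAUCHY]).
import Cfsg.Agent.Lib.Helper23.OHyp.CntDefs

set_option autoImplicit false
open scoped MatrixGroups
open Matrix

namespace Cfsg.Agent.Lib.Helper61.OHyp

open Cfsg.Agent.Lib.Helper23.OHyp

universe u

section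

variable {F : Type u} [Field F] {ι : Type} [Fintype ι] [DecidableEq ι]

theorem isom_apply {Q : (ι → F) → F} {g : GL ι F} (hg : g ∈ Cfsg.isometryGroup F Q)
    (v : ι → F) : Q ((g : Matrix ι ι F) *ᵥ v) = Q v := hg v v

theorem polar_isom {Q : (ι → F) → F} {g : GL ι F} (hg : g ∈ Cfsg.isometryGroup F Q)
    (u v : ι → F) :
    QuadraticMap.polar Q ((g : Matrix ι ι F) *ᵥ u) ((g : Matrix ι ι F) *ᵥ v) =
      QuadraticMap.polar Q u v := by
  unfold QuadraticMap.polar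
  rw [← Matrix.mulVec_add, isom_apply hg, isom_apply hg, isom_apply hg]

theorem gl_mulVec_inj (g : GL ι F) {a b : ι → F}
    (h : (g : Matrix ι ι F) *ᵥ a = (g : Matrix ι ι F) *ᵥ b) : a = b := by
  have h2 := congrArg (fun w => ((g⁻¹ : GL ι F) : Matrix ι ι F) *ᵥ w) h
  simp only [Matrix.mulVec_mulVec, ← Units.val_mul, inv_mul_cancel, Units.val_one,
    Matrix.one_mulVec] at h2
  exact h2

theorem toLin_inj (g : GL ι F) : Function.Injective (Matrix.toLin' (g : Matrix ι ι F)) := by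
  intro a b h
  rw [Matrix.toLin'_apply, Matrix.toLin'_apply] at h
  exact gl_mulVec_inj g h

theorem mem_map_gl {g : GL ι F} {W : Submodule F (ι → F)} {v : ι → F} :
    v ∈ W.map (Matrix.toLin' (g : Matrix ι ι F)) ↔
      ∃ w ∈ W, (g : Matrix ι ι F) *ᵥ w = v := by
  rw [Submodule.mem_map]
  simp only [Matrix.toLin'_apply]

theorem finrank_map_gl (g : GL ι F) (W : Submodule F (ι → F)) :
    Module.finrank F ↥(W.map (Matrix.toLin' (g : Matrix ι ι F))) = Module.finrank F ↥W :=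
  (Submodule.equivMapOfInjective _ (toLin_inj g) W).finrank_eq.symm

theorem nd_map_gl {Q : (ι → F) → F} {g : GL ι F} (hg : g ∈ Cfsg.isometryGroup F Q)
    {W : Submodule F (ι → F)}
    (hW : Cfsg.Geo.IsNondegenerateOn (QuadraticMap.polar Q) W) :
    Cfsg.Geo.IsNondegenerateOn (QuadraticMap.polar Q)
      (W.map (Matrix.toLin' (g : Matrix ι ι F))) := by
  intro w hw hw0
  obtain ⟨w0, hw0W, rfl⟩ := mem_map_gl.mp hw
  have hw00 : w0 ≠ 0 := by
    rintro rfl
    exact hw0 (by simp)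
  obtain ⟨⟨a, haW, ha⟩, ⟨b, hbW, hb⟩⟩ := hW w0 hw0W hw00
  refine ⟨⟨(g : Matrix ι ι F) *ᵥ a, mem_map_gl.mpr ⟨a, haW, rfl⟩, ?_⟩,
    ⟨(g : Matrix ι ι F) *ᵥ b, mem_map_gl.mpr ⟨b, hbW, rfl⟩, ?_⟩⟩
  · rw [polar_isom hg]; exact ha
  · rw [polar_isom hg]; exact hb

theorem plus_map_gl {Q : (ι → F) → F} {g : GL ι F} (hg : g ∈ Cfsg.isometryGroup F Q)
    {W : Submodule F (ι → F)} (hW : Cfsg.Geo.IsPlusTypeOn Q W) :
    Cfsg.Geo.IsPlusTypeOn Q (W.map (Matrix.toLin' (g : Matrix ι ι F))) := by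
  obtain ⟨U, hUW, hU0, hUd⟩ := hW
  refine ⟨U.map (Matrix.toLin' (g : Matrix ι ι F)), Submodule.map_mono hUW, ?_, ?_⟩
  · intro w hw
    obtain ⟨w0, hw0U, rfl⟩ := mem_map_gl.mp hw
    rw [isom_apply hg]
    exact hU0 w0 hw0U
  · rw [finrank_map_gl, finrank_map_gl]
    exact hUd

/-- The image of a hyperbolic `m`-space under an isometry. -/
def mapHyp {Q : (ι → F) → F} {m : ℕ} (g : GL ι F) (hg : g ∈ Cfsg.isometryGroup F Q)
    (W : HypSp Q m) : HypSp Q m :=
  ⟨W.1.map (Matrix.toLin' (g : Matrix ι ι F)),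
    (finrank_map_gl g W.1).trans W.2.1, nd_map_gl hg W.2.2.1, plus_map_gl hg W.2.2.2⟩

/-- The isometries fixing the moved space of `x` pointwise. -/
def fixer (Q : (ι → F) → F) (x : Matrix ι ι F) : Subgroup (GL ι F) where
  carrier := {g | g ∈ Cfsg.isometryGroup F Q ∧
    ∀ v ∈ movSp x, (g : Matrix ι ι F) *ᵥ v = v}
  mul_mem' := by
    rintro a b ⟨ha, ha'⟩ ⟨hb, hb'⟩
    refine ⟨mul_mem ha hb, fun v hv => ?_⟩
    rw [Units.val_mul, ← Matrix.mulVec_mulVec, hb' v hv, ha' v hv]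
  one_mem' := ⟨one_mem _, fun v _ => by simp⟩
  inv_mem' := by
    rintro a ⟨ha, ha'⟩
    refine ⟨inv_mem ha, fun v hv => ?_⟩
    conv_lhs => rw [← ha' v hv]
    rw [Matrix.mulVec_mulVec, ← Units.val_mul, inv_mul_cancel, Units.val_one,
      Matrix.one_mulVec]

theorem mem_fixSp {x : Matrix ι ι F} {v : ι → F} : v ∈ fixSp x ↔ x *ᵥ v = v := by
  unfold fixSp
  rw [LinearMap.mem_ker, LinearMap.sub_apply, Matrix.toLin'_apply, sub_eq_zero]
  rfl

/-- The hyperbolic `m`-spaces inside the fixed space of `x`. -/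
abbrev HypIn (Q : (ι → F) → F) (x : Matrix ι ι F) (m : ℕ) : Type u :=
  {W : HypSp Q m // W.1 ≤ fixSp x}

/-- The action of the fixer on the hyperbolic `m`-spaces inside the fixed space. -/
@[reducible] def actY (Q : (ι → F) → F) (x : Matrix ι ι F) (m : ℕ)
    (hkeep : ∀ g ∈ fixer Q x, ∀ v ∈ fixSp x, (g : Matrix ι ι F) *ᵥ v ∈ fixSp x) :
    MulAction ↥(fixer Q x) (HypIn Q x m) where
  smul g W := ⟨mapHyp g.1 g.2.1 W.1, by
    intro v hv
    obtain ⟨w, hw, rfl⟩ := mem_map_gl.mp hv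
    exact hkeep g.1 g.2 w (W.2 hw)⟩
  one_smul W := by
    apply Subtype.ext
    apply Subtype.ext
    show W.1.1.map (Matrix.toLin' (((1 : ↥(fixer Q x)) : GL ι F) : Matrix ι ι F)) = W.1.1
    rw [Subgroup.coe_one, Units.val_one, Matrix.toLin'_one, Submodule.map_id]
  mul_smul g h W := by
    apply Subtype.ext
    apply Subtype.ext
    show W.1.1.map (Matrix.toLin' (((g * h : ↥(fixer Q x)) : GL ι F) : Matrix ι ι F)) =
      (W.1.1.map (Matrix.toLin' ((h : GL ι F) : Matrix ι ι F))).map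
        (Matrix.toLin' ((g : GL ι F) : Matrix ι ι F))
    rw [Subgroup.coe_mul, Units.val_mul, Matrix.toLin'_mul, Submodule.map_comp]

end

/-- [CNTIN] -/
theorem pkgCntIn_of (hGeom : PkgGeom.{u}) (hSplit : PkgSplit.{u}) (hWitt : PkgCntWitt.{u})
    (hCauchy : PkgCntCauchy.{u}) : PkgCntIn.{u} := by
  intro F _ _ ι _ _ Q r x hStd m hm hlt hltc
  obtain ⟨hNdFix, hNdMov, hPerp, hCompl, -, -⟩ := hSplit F ι Q r x hStd
  have hbil := hStd.nondeg.polar_bilinear
  -- the fixer preserves the fixed space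
  have hkeep : ∀ g ∈ fixer Q x, ∀ v ∈ fixSp x, (g : Matrix ι ι F) *ᵥ v ∈ fixSp x := by
    rintro g ⟨hg, hgfix⟩ v hv
    have htop : (g : Matrix ι ι F) *ᵥ v ∈ fixSp x ⊔ movSp x := by
      rw [hCompl.sup_eq_top]; exact Submodule.mem_top
    obtain ⟨a, ha, b, hb, hab⟩ := Submodule.mem_sup.mp htop
    have hb0 : b = 0 := by
      by_contra hb0
      obtain ⟨-, ⟨c, hc, hcb⟩⟩ := hNdMov b hb hb0
      apply hcb
      have h1 : QuadraticMap.polar Q ((g : Matrix ι ι F) *ᵥ v) c = 0 := by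
        have h2 := polar_isom hg v c
        rw [hgfix c hc] at h2
        rw [h2]
        exact hPerp v hv c hc
      rw [← hab, hbil.add_left, hPerp a ha c hc, zero_add] at h1
      exact h1
    rw [← hab, hb0, add_zero]
    exact ha
  let _inst := actY Q x m hkeep
  -- nonempty
  obtain ⟨W₀, hW₀C, hW₀Nd, hW₀dim, hW₀Plus⟩ :=
    hGeom F ι Q hStd.nondeg hStd.two (fixSp x) hNdFix m True hm (by omega) (fun _ => trivial)
  let y₀ : HypIn Q x m := ⟨⟨W₀, hW₀dim, hW₀Nd, hW₀Plus.mpr trivial⟩, hW₀C⟩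
  -- transitivity
  have htrans : MulAction.IsPretransitive ↥(fixer Q x) (HypIn Q x m) := by
    refine ⟨fun a b => ?_⟩
    obtain ⟨g, hg, hgfix, hgmap⟩ := hWitt F ι Q r x hStd m a.1 b.1 a.2 b.2
    exact ⟨⟨g, hg, hgfix⟩, Subtype.ext (Subtype.ext hgmap)⟩
  have hdvd : Nat.card (HypIn Q x m) ∣ Nat.card ↥(fixer Q x) := by
    rw [← MulAction.index_stabilizer_of_transitive ↥(fixer Q x) y₀]
    exact Subgroup.index_dvd_card _
  intro hr
  have hr' : r ∣ Nat.card ↥(fixer Q x) := hr.trans hdvd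
  have : Fact r.Prime := ⟨hStd.prime⟩
  obtain ⟨g, hg⟩ := exists_prime_orderOf_dvd_card' r hr'
  have hpow : (g : GL ι F) ^ r = 1 := by
    rw [← Subgroup.coe_pow, ← hg, pow_orderOf_eq_one, Subgroup.coe_one]
  have h1 : (g : GL ι F) = 1 := hCauchy F ι Q r x hStd hltc g.1 g.2.1 g.2.2 hpow
  have h2 : g = 1 := Subtype.ext h1
  rw [h2, orderOf_one] at hg
  exact hStd.prime.one_lt.ne hg
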